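import Cfsg.Agent.H754.XZ.BlkOrb
import Cfsg.Agent.H967.XZ.Cen

/-!
# Block elements of order `p`, `e ≥ 2` (helper754, S4791: (D4)(iii-a))

* `exists_blkEl_of` : in every subgroup `I` containing the root elements `Fr.X (a, true) (b, false) t` of the frame (types `B`, `D`);
* `exists_blkEl_two` : the same in a `FrameCN.Model`.
-/

set_option autoImplicit false
set_option linter.unusedSectionVars false

namespace Cfsg.Agent.H754.XZ

open Cfsg.Agent.Nodes Cfsg.Agent.Nodes.WittAll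
open Cfsg.Agent.TitsThree.Siegel Cfsg.Agent.TitsThree.WittFrame Cfsg.Agent.TitsThree.WittWeyl
  Cfsg.Agent.TitsThree.FrameCN Cfsg.Agent.H967.XZ Cfsg.Agent.H769.OZ

variable {F : Type*} [Field F] {V : Type*} [AddCommGroup V] [Module F V] {H : HForm F V} {m : ℕ} {Fr : Frame H (Fin m)}

theorem dvd_of_orderOf {p q e : ℕ} [Fact p.Prime] (he : e = orderOf (q : ZMod p)) (hq : 0 < q) : p ∣ q ^ e - 1 := by
  have h1 : ((q ^ e : ℕ) : ZMod p) = ((1 : ℕ) : ZMod p) := by
    rw [Nat.cast_pow, he, pow_orderOf_eq_one, Nat.cast_one]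
  have h2 := (ZMod.natCast_eq_natCast_iff _ _ _).1 h1
  exact (Nat.modEq_iff_dvd' (Nat.one_le_pow _ _ hq)).1 h2.symm

/-- **block elements, any group containing the root elements `Fr.X (a, true) (b, false) t`** -/
theorem exists_blkEl_of [Fintype F] [Finite V] (hV0 : ∀ v, (∀ x, H.h v (Fr.b x) = 0) → v ∈ Fr.V0)
    {G0 : Subgroup (V ≃ₗ[F] V)} (hX : ∀ (a b : Fin m) (t : F), a ≠ b → Fr.X (a, true) (b, false) t ∈ G0)
    {p e : ℕ} [Fact p.Prime] (he : e = orderOf (Fintype.card F : ZMod p)) (he2 : 2 ≤ e) {i : ℕ} (hi : e * (i + 1) ≤ m) :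
    ∃ y ∈ G0, BlkEl Fr p e i y := by
  have h1 : e * i + e = e * (i + 1) := (Nat.mul_succ e i).symm
  obtain ⟨y, hy, hy1, hy2⟩ := exists_order (Fr := Fr) (p := p) (lo := e * i) (hi := e * (i + 1)) (by omega) hi (by
    have : e * (i + 1) - e * i = e := by omega
    rw [this, Nat.card_eq_fintype_card]
    exact dvd_of_orderOf he Fintype.card_pos)
  have hle : GA Fr (e * i) (e * (i + 1)) ≤ G0 := by
    refine (Subgroup.closure_le _).2 ?_
    rintro _ ⟨a, b, hab, -, -, -, -, t, rfl⟩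
    exact hX a b t hab
  refine ⟨y, hle hy, hy1, hy2, fun s v hv => (GA_StE hy s v).2 hv, fun v hv => ?_⟩
  exact fix_rst hV0 (fun k s hk => GA_fix_b hy k s hk) (fun w hw => GA_fix_V0 hy hw)
    (fun k h2 h3 s => hv s _ (b_mem_Mb h2 h3 s))

/-- **block elements in the models, `e ≥ 2`** -/
theorem exists_blkEl_two [Fintype F] [Finite V] {Y : Type*} [Group Y] (M : Model Fr Y) {r : ℕ} (hA : AmbT Fr r M.I)
    {p e : ℕ} [Fact p.Prime] (he : e = orderOf (Fintype.card F : ZMod p)) (he2 : 2 ≤ e) {i : ℕ} (hi : e * (i + 1) ≤ m) :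
    ∃ y : M.I, BlkEl Fr p e i y.1 := by
  obtain ⟨y, hy, h⟩ := exists_blkEl_of (G0 := M.I) hA.V0 (fun a b t _ => M.hX _ _ _) he he2 hi
  exact ⟨⟨y, hy⟩, h⟩

end Cfsg.Agent.H754.XZ
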